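import Cfsg.Agent.FT.PF9.Galois
import Cfsg.Agent.FT.PF9.Degrees
import Cfsg.Agent.FT.PF9.Core

/-!
In the Galois case a complement acting faithfully on the factor is cyclic.
-/

set_option autoImplicit false

namespace Cfsg.Agent.FT.PF11

open Subgroup Cfsg.Agent

variable {L : Type*} [Group L] [Finite L] {H U W₁ W₂ H₀ : Subgroup L} [H₀.Normal] {p : ℕ}

theorem isCyclic_of_galois (h : PF9.Ctx H U W₁ W₂ H₀ p) (hgal : PF9.IsGalois H U H₀)
    (hC : PF9.centMod U H H₀ = ⊥) : IsCyclic U := by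
  obtain ⟨F, _, _, f, ψ, σ, -, -, -, -, hne, hmul, hone, -⟩ :=
    PF9.galois_field h.setup h.kernel hgal h.prime h.exp h.comm h.card h.cardW₂
  have h1 : ψ 1 = 1 := by
    have e := hmul 1 U.one_mem 1 U.one_mem
    rw [mul_one] at e
    exact mul_left_cancel₀ (hne 1 U.one_mem) (by rw [mul_one]; exact e.symm)
  let g : U →* Fˣ :=
    { toFun := fun u => Units.mk0 (ψ u) (hne u u.2)
      map_one' := Units.ext h1
      map_mul' := fun a b => Units.ext (hmul a a.2 b b.2) }
  refine isCyclic_of_injective g ((injective_iff_map_eq_one g).2 fun u hu => Subtype.ext ?_)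
  have h2 : (u : L) ∈ PF9.centMod U H H₀ := (hone u u.2).1 (congrArg Units.val hu :)
  rwa [hC, mem_bot] at h2

end Cfsg.Agent.FT.PF11
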